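import Cfsg.Agent.H15.RtP5
import Cfsg.Agent.H46.Involves

/-!
# S2755: assembly from the pieces
-/

set_option autoImplicit false
set_option linter.style.haveILetI false

namespace Cfsg.Agent.H15.RtFin

open Cfsg.Agent Cfsg
open Cfsg.Agent.H15.RtP5

universe u

/-- pieces of S2755 -/
structure Pcs : Prop where
  s4ab : ∀ {G : Type u} [Group G] [Finite G] (_ : ∀ S : Sylow 2 G, ∀ x ∈ S, ∀ y ∈ S, x * y = y * x),
    ¬ Cfsg.Involves (Equiv.Perm (Fin 4)) G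
  s4ab0 : ∀ {G : Type} [Group G] [Finite G] (_ : ∀ S : Sylow 2 G, ∀ x ∈ S, ∀ y ∈ S, x * y = y * x),
    ¬ Cfsg.Involves (Equiv.Perm (Fin 4)) G
  s4ti0 : ∀ {G : Type} [Group G] [Finite G]
    (_ : ∀ S T : Sylow 2 G, S ≠ T → S.toSubgroup ⊓ T.toSubgroup = ⊥), ¬ Cfsg.Involves (Equiv.Perm (Fin 4)) G
  even_ti : ∀ {F : Type} [Field F] [Fintype F] (n : ℕ) (_ : 1 ≤ n) (_ : Fintype.card F = 2 ^ n)
    (S T : Sylow 2 (Matrix.ProjectiveSpecialLinearGroup (Fin 2) F)) (_ : S ≠ T), S.toSubgroup ⊓ T.toSubgroup = ⊥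
  psu3_ti : ∀ {F : Type} [Field F] [Fintype F] (n : ℕ) (_ : 2 ≤ n) (_ : Fintype.card F = 4 ^ n)
    (S T : Sylow 2 (Cfsg.PSU 3 F (2 ^ n))) (_ : S ≠ T), S.toSubgroup ⊓ T.toSubgroup = ⊥
  psl2_38_ab : ∀ {F : Type} [Field F] [Fintype F] (q : ℕ) (_ : Fintype.card F = q) (_ : q % 8 = 3 ∨ q % 8 = 5)
    (S : Sylow 2 (Matrix.ProjectiveSpecialLinearGroup (Fin 2) F)), ∀ x ∈ S, ∀ y ∈ S, x * y = y * x
  j1 : ∀ {G : Type u} [Group G] [Finite G] (_ : Cfsg.Spor.IsoJ1 G),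
    (∀ S : Sylow 2 G, ∀ x ∈ S, ∀ y ∈ S, x * y = y * x) ∧ Cfsg.Involves (Equiv.Perm (Fin 3)) G
  sz : ∀ {G : Type u} [Group G] [Finite G] (_ : Cfsg.Lie.IsoSuzuki G), ¬ 3 ∣ Nat.card G
  ree_ab : ∀ {G : Type u} [Group G] [Finite G] (_ : Cfsg.IsReeType G),
    ∀ S : Sylow 2 G, ∀ x ∈ S, ∀ y ∈ S, x * y = y * x
  s3_psu3 : ∀ {F : Type} [Field F] [Fintype F] (n : ℕ) (_ : 2 ≤ n) (_ : Fintype.card F = 4 ^ n),
    Cfsg.Involves (Equiv.Perm (Fin 3)) (Cfsg.PSU 3 F (2 ^ n))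
  ree : ∀ {G : Type u} [Group G] [Finite G] (_ : Cfsg.IsReeType G), Cfsg.Involves (Equiv.Perm (Fin 3)) G

theorem transport {H : Type*} [Group H] {G : Type*} [Group G] {M : Type*} [Group M] (e : G ≃* M)
    (h : Involves H M) : Involves H G :=
  H46.involves_of_injective h e.symm.toMonoidHom e.symm.injective

theorem transport' {H : Type*} [Group H] {G : Type*} [Group G] {M : Type*} [Group M] (e : G ≃* M)
    (h : ¬ Involves H M) : ¬ Involves H G := fun h' => h (transport e.symm h')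

/-- fields of characteristic three with `q ≡ 3, 5 (mod 8)` elements -/
theorem card_three {F : Type*} [Field F] [Fintype F] (h3 : (3 : F) = 0)
    (hq : Fintype.card F % 8 = 3 ∨ Fintype.card F % 8 = 5) : ∃ n : ℕ, Fintype.card F = 3 ^ (2 * n + 1) := by
  haveI : CharP F 3 := by
    refine (CharP.charP_iff_prime_eq_zero Nat.prime_three).2 ?_
    exact_mod_cast h3
  obtain ⟨m, hm3, hm⟩ := FiniteField.card F 3
  rcases Nat.even_or_odd' (m : ℕ) with ⟨k, hk | hk⟩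
  · exfalso
    rw [hm, hk, pow_mul, Nat.pow_mod] at hq
    norm_num at hq
  · exact ⟨k, by rw [hm, hk]⟩

theorem fin_of (P : Pcs.{u}) {G : Type u} [Group G] [Finite G] (hG : Cfsg.IsGoldschmidtGroup G) :
    ¬ Cfsg.Involves (Equiv.Perm (Fin 4)) G ∧
      (¬ Cfsg.Involves (Equiv.Perm (Fin 3)) G ↔ Cfsg.IsSuzukiOrPSL2OddPowerThree G) := by
  refine ⟨?_, ?_, ?_⟩
  · rcases hG with h | ⟨F, i1, i2, n, hn, hF, ⟨e⟩⟩ | h | ⟨F, i1, i2, n, hn, hF, ⟨e⟩⟩ |
      ⟨F, i1, i2, q, hF, hq5, hq, ⟨e⟩⟩ | h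
    · exact P.s4ab (P.ree_ab h)
    · exact transport' e (P.s4ti0 (fun S T h => P.even_ti n (by omega) hF S T h))
    · exact (s3_free_of_three (P.sz h)).2
    · haveI : Finite (Cfsg.PSU 3 F (2 ^ n)) := Finite.of_equiv G e.toEquiv
      exact transport' e (P.s4ti0 (fun S T h => P.psu3_ti n hn hF S T h))
    · exact transport' e (P.s4ab0 (P.psl2_38_ab q hF hq))
    · exact P.s4ab (P.j1 h).1
  · intro hfree
    rcases hG with h | ⟨F, i1, i2, n, hn, hF, ⟨e⟩⟩ | h | ⟨F, i1, i2, n, hn, hF, ⟨e⟩⟩ |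
      ⟨F, i1, i2, q, hF, hq5, hq, ⟨e⟩⟩ | h
    · exact absurd (P.ree h) hfree
    · exfalso
      apply hfree
      refine transport e (s3_le_psl ?_)
      haveI : Fact (Nat.Prime 2) := ⟨Nat.prime_two⟩
      haveI : CharP F 2 := charP_of_card_eq_prime_pow hF
      have h20 : (2 : F) = 0 := by
        have := CharP.cast_eq_zero F 2
        exact_mod_cast this
      intro h3
      apply one_ne_zero (α := F)
      linear_combination h3 - h20
    · exact Or.inl h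
    · exact absurd (transport e (P.s3_psu3 n hn hF)) hfree
    · by_cases h3 : (3 : F) = 0
      · obtain ⟨n, hn⟩ := card_three h3 (by rw [hF]; exact hq)
        exact Or.inr ⟨F, i1, i2, n, hn, ⟨e⟩⟩
      · exact absurd (transport e (s3_le_psl h3)) hfree
    · exact absurd (P.j1 h).2 hfree
  · rintro (h | ⟨F, i1, i2, n, hF, ⟨e⟩⟩)
    · exact (s3_free_of_three (P.sz h)).1
    · exact transport' e (s3_free_psl3 n hF)

end Cfsg.Agent.H15.RtFin
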