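import Cfsg.Agent.H62.W2
import Cfsg.Prelude.Def_LocalEven

/-!
# S2755, pieces P5a, P5b, P5c3: involvement of `S₃` in `PSL₂`
-/

set_option autoImplicit false
set_option linter.style.haveILetI false

namespace Cfsg.Agent.H15.RtP5

open Cfsg.Agent Cfsg

theorem card_dvd_of_involves {H : Type*} [Group H] {G : Type*} [Group G] [Finite G] (h : Involves H G) :
    Nat.card H ∣ Nat.card G := by
  obtain ⟨K, R, hR, ⟨e⟩⟩ := h
  rw [← Nat.card_congr e.toEquiv]
  exact (Subgroup.card_quotient_dvd_card _).trans (Subgroup.card_subgroup_dvd_card K)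

/-- [P5c3] -/
theorem s3_free_of_three {G : Type*} [Group G] [Finite G] (h : ¬ 3 ∣ Nat.card G) :
    ¬ Cfsg.Involves (Equiv.Perm (Fin 3)) G ∧ ¬ Cfsg.Involves (Equiv.Perm (Fin 4)) G := by
  constructor
  · intro hi
    apply h
    refine Dvd.dvd.trans ?_ (card_dvd_of_involves hi)
    rw [Nat.card_eq_fintype_card, Fintype.card_perm, Fintype.card_fin]
    decide
  · intro hi
    apply h
    refine Dvd.dvd.trans ?_ (card_dvd_of_involves hi)
    rw [Nat.card_eq_fintype_card, Fintype.card_perm, Fintype.card_fin]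
    decide

/-- [P5a] -/
theorem exists_quad {F : Type*} [Field F] [Fintype F] (h3 : (3 : F) ≠ 0) : ∃ x z : F, x * x + x * z + z * z = -1 := by
  by_cases h2 : ringChar F = 2
  · have h20 : (2 : F) = 0 := by
      have := ringChar.Nat.cast_ringChar (R := F)
      rw [h2] at this
      exact_mod_cast this
    refine ⟨1, 0, ?_⟩
    linear_combination h20
  · have h20 : (2 : F) ≠ 0 := Ring.two_ne_zero h2
    obtain ⟨a, b, hab⟩ := FiniteField.exists_root_sum_quadratic (f := (Polynomial.X ^ 2 : Polynomial F))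
      (g := Polynomial.C 3 * Polynomial.X ^ 2 + Polynomial.C 0 * Polynomial.X + Polynomial.C 4)
      (Polynomial.degree_X_pow 2) (Polynomial.degree_quadratic h3) (FiniteField.odd_card_of_char_ne_two h2)
    have h1 : a * a + 3 * (b * b) + 4 = 0 := by
      have : a ^ 2 + (3 * b ^ 2 + 0 * b + 4) = 0 := by simpa using hab
      linear_combination this
    have h4 : (4 : F) ≠ 0 := by
      have : (4 : F) = 2 * 2 := by norm_num
      rw [this]; exact mul_ne_zero h20 h20
    refine ⟨(a - b) / 2, b, ?_⟩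
    have h5 : 4 * ((a - b) / 2 * ((a - b) / 2) + (a - b) / 2 * b + b * b + 1) = 0 := by
      field_simp
      linear_combination 4 * h1
    have h6 := (mul_eq_zero.1 h5).resolve_left h4
    linear_combination h6

theorem s3_le_psl {F : Type*} [Field F] [Fintype F] (h3 : (3 : F) ≠ 0) :
    Cfsg.Involves (Equiv.Perm (Fin 3)) (Matrix.ProjectiveSpecialLinearGroup (Fin 2) F) := by
  obtain ⟨x, z, hxz⟩ := exists_quad h3
  have hY1 : (!![0, -1; 1, -1] : Matrix (Fin 2) (Fin 2) F).det = 1 := by simp [Matrix.det_fin_two]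
  have hH1 : (!![x, z; x + z, -x] : Matrix (Fin 2) (Fin 2) F).det = 1 := by
    rw [Matrix.det_fin_two_of]; linear_combination -hxz
  let Y : Matrix.SpecialLinearGroup (Fin 2) F := ⟨_, hY1⟩
  let H : Matrix.SpecialLinearGroup (Fin 2) F := ⟨_, hH1⟩
  have hmem : ∀ A : Matrix.SpecialLinearGroup (Fin 2) F, A ∈ Subgroup.center (Matrix.SpecialLinearGroup (Fin 2) F) →
      A 0 1 = 0 ∧ A 1 0 = 0 ∧ A 0 0 = A 1 1 := by
    intro A hA
    obtain ⟨r, hr, hrA⟩ := Matrix.SpecialLinearGroup.mem_center_iff.1 hA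
    rw [← hrA]
    simp [Matrix.scalar_apply]
  have hHH : H * H ∈ Subgroup.center (Matrix.SpecialLinearGroup (Fin 2) F) := by
    rw [Matrix.SpecialLinearGroup.mem_center_iff]
    refine ⟨-1, by simp, ?_⟩
    show Matrix.scalar (Fin 2) (-1 : F) = !![x, z; x + z, -x] * !![x, z; x + z, -x]
    rw [Matrix.mul_fin_two]
    ext i j
    fin_cases i <;> fin_cases j <;> simp [Matrix.scalar_apply] <;>
      first | linear_combination -hxz | linear_combination hxz | ring
  have hY3 : Y * Y * Y = 1 := by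
    apply Subtype.ext
    show !![0, -1; 1, -1] * !![0, -1; 1, -1] * !![0, -1; 1, -1] = (1 : Matrix (Fin 2) (Fin 2) F)
    rw [Matrix.mul_fin_two, Matrix.mul_fin_two, Matrix.one_fin_two]
    ext i j
    fin_cases i <;> fin_cases j <;> simp
  have hHY : Y * H * Y = H := by
    apply Subtype.ext
    show !![0, -1; 1, -1] * !![x, z; x + z, -x] * !![0, -1; 1, -1] = (!![x, z; x + z, -x] : Matrix (Fin 2) (Fin 2) F)
    rw [Matrix.mul_fin_two, Matrix.mul_fin_two]
    ext i j
    fin_cases i <;> fin_cases j <;> simp [add_comm]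
  have e1 : ∀ A : Matrix.SpecialLinearGroup (Fin 2) F, ((QuotientGroup.mk A :
      Matrix.ProjectiveSpecialLinearGroup (Fin 2) F) = 1 ↔ A ∈ Subgroup.center (Matrix.SpecialLinearGroup (Fin 2) F)) :=
    fun A => QuotientGroup.eq_one_iff A
  refine H62.involves_S3_of_inverted (x := (QuotientGroup.mk H : Matrix.ProjectiveSpecialLinearGroup (Fin 2) F))
    (y := (QuotientGroup.mk Y : Matrix.ProjectiveSpecialLinearGroup (Fin 2) F)) ?_ ?_ ?_ ?_
  · have h1 : (QuotientGroup.mk H : Matrix.ProjectiveSpecialLinearGroup (Fin 2) F) ^ 2 = 1 := by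
      rw [sq]
      exact (e1 (H * H)).2 hHH
    obtain ⟨k, -, hk⟩ := (Nat.dvd_prime_pow Nat.prime_two).1 (show orderOf
      (QuotientGroup.mk H : Matrix.ProjectiveSpecialLinearGroup (Fin 2) F) ∣ 2 ^ 1 from
        orderOf_dvd_of_pow_eq_one (by rw [pow_one]; exact h1))
    exact ⟨k, hk⟩
  · have : (QuotientGroup.mk Y : Matrix.ProjectiveSpecialLinearGroup (Fin 2) F) ^ 3 = QuotientGroup.mk (Y * Y * Y) := by
      rw [pow_succ, sq]; rfl
    rw [this, hY3]; rfl
  · intro h
    have h1 := (hmem Y ((e1 Y).1 h)).2.1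
    have h2 : Y 1 0 = 1 := rfl
    rw [h2] at h1
    exact one_ne_zero h1
  · have h1 : (QuotientGroup.mk Y : Matrix.ProjectiveSpecialLinearGroup (Fin 2) F) * QuotientGroup.mk H *
      QuotientGroup.mk Y = QuotientGroup.mk H := congrArg QuotientGroup.mk hHY
    rw [mul_inv_eq_iff_eq_mul, eq_inv_mul_iff_mul_eq, ← mul_assoc]
    exact h1

/-- [P5b] -/
theorem s3_free_psl3 {F : Type*} [Field F] [Fintype F] (n : ℕ) (hF : Fintype.card F = 3 ^ (2 * n + 1)) :
    ¬ Cfsg.Involves (Equiv.Perm (Fin 3)) (Matrix.ProjectiveSpecialLinearGroup (Fin 2) F) := by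
  intro h
  haveI : Fact (Nat.Prime 3) := ⟨Nat.prime_three⟩
  haveI : CharP F 3 := charP_of_card_eq_prime_pow hF
  have h30 : (3 : F) = 0 := by
    have := CharP.cast_eq_zero F 3
    exact_mod_cast this
  have hns : ¬ IsSquare (-1 : F) := by
    rw [FiniteField.isSquare_neg_one_iff, not_not, hF, pow_add, pow_mul, pow_one, Nat.mul_mod, Nat.pow_mod]
    norm_num
  obtain ⟨x, y, -, ⟨k, hk⟩, hy1, hxy⟩ := H62.exists_inverted_of_involves_S3 h
  obtain ⟨X, rfl⟩ := QuotientGroup.mk_surjective x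
  obtain ⟨Y, rfl⟩ := QuotientGroup.mk_surjective y
  have e1 : ∀ A : Matrix.SpecialLinearGroup (Fin 2) F, ((QuotientGroup.mk A :
      Matrix.ProjectiveSpecialLinearGroup (Fin 2) F) = 1 ↔ A ∈ Subgroup.center (Matrix.SpecialLinearGroup (Fin 2) F)) :=
    fun A => QuotientGroup.eq_one_iff A
  -- `Y ^ 3 ^ k` is scalar
  have hYk : Y ^ 3 ^ k ∈ Subgroup.center (Matrix.SpecialLinearGroup (Fin 2) F) := by
    rw [← e1]
    have := pow_orderOf_eq_one (QuotientGroup.mk Y : Matrix.ProjectiveSpecialLinearGroup (Fin 2) F)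
    rw [hk] at this
    exact this
  obtain ⟨r, hr, hrY⟩ := Matrix.SpecialLinearGroup.mem_center_iff.1 hYk
  rw [Fintype.card_fin] at hr
  obtain ⟨a0, b0, c0, d0, hM⟩ : ∃ a b c d : F, (Y : Matrix (Fin 2) (Fin 2) F) = !![a, b; c, d] :=
    ⟨_, _, _, _, Matrix.eta_fin_two _⟩
  obtain ⟨p, q, u, v, hP⟩ : ∃ a b c d : F, (X : Matrix (Fin 2) (Fin 2) F) = !![a, b; c, d] :=
    ⟨_, _, _, _, Matrix.eta_fin_two _⟩
  have hdY : a0 * d0 - b0 * c0 = 1 := by
    have := Y.2
    rwa [hM, Matrix.det_fin_two_of] at this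
  have hdX : p * v - q * u = 1 := by
    have := X.2
    rwa [hP, Matrix.det_fin_two_of] at this
  have hr' : r * r = 1 := by rw [← sq]; exact hr
  have hr0 : r ≠ 0 := by rintro rfl; simp at hr'
  -- `r M` is unipotent
  have hrk : r ^ (3 ^ k) = r := by
    obtain ⟨j, hj⟩ : Odd (3 ^ k) := Odd.pow (by decide)
    rw [hj, pow_succ, pow_mul, hr, one_pow, one_mul]
  have hMk : (Y : Matrix (Fin 2) (Fin 2) F) ^ 3 ^ k = r • (1 : Matrix (Fin 2) (Fin 2) F) := by
    have h1 : ((Y ^ 3 ^ k : Matrix.SpecialLinearGroup (Fin 2) F) : Matrix (Fin 2) (Fin 2) F) =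
      (Y : Matrix (Fin 2) (Fin 2) F) ^ 3 ^ k := by simp
    rw [← h1, ← hrY]
    ext i j
    fin_cases i <;> fin_cases j <;> simp [Matrix.scalar_apply]
  have hNk : (r • (Y : Matrix (Fin 2) (Fin 2) F) - 1) ^ 3 ^ k = 0 := by
    rw [sub_pow_char_pow_of_commute _ _ (Commute.one_right _), smul_pow, hMk, one_pow, hrk, smul_smul, hr', one_smul,
      sub_self]
  have hdN : (r * a0 - 1) * (r * d0 - 1) - (r * b0) * (r * c0) = 0 := by
    have h1 : (r • (Y : Matrix (Fin 2) (Fin 2) F) - 1).det = 0 := by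
      have h2 := congrArg Matrix.det hNk
      rw [Matrix.det_pow, Matrix.det_zero] at h2
      exact pow_eq_zero_iff (by positivity) |>.1 h2
    rw [hM, Matrix.one_fin_two, Matrix.smul_of, Matrix.det_fin_two] at h1
    simpa using h1
  have htr : r * (a0 + d0) = 2 := by linear_combination (-1 : F) * hdN + r ^ 2 * hdY + hr'
  -- the relation
  have hrel : X * Y * X⁻¹ * Y ∈ Subgroup.center (Matrix.SpecialLinearGroup (Fin 2) F) := by
    rw [← e1]
    have h1 : (QuotientGroup.mk (X * Y * X⁻¹ * Y) : Matrix.ProjectiveSpecialLinearGroup (Fin 2) F) =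
      QuotientGroup.mk X * QuotientGroup.mk Y * (QuotientGroup.mk X)⁻¹ * QuotientGroup.mk Y := rfl
    rw [h1, hxy, inv_mul_cancel]
  obtain ⟨s, hs, hsW⟩ := Matrix.SpecialLinearGroup.mem_center_iff.1 hrel
  rw [Fintype.card_fin] at hs
  have hs' : s * s = 1 := by rw [← sq]; exact hs
  have hmat : s • (!![d0, -b0; -c0, a0] * !![p, q; u, v]) = !![p, q; u, v] * !![a0, b0; c0, d0] := by
    have h1 : (X * Y * X⁻¹ * Y) * Y⁻¹ * X = X * Y := by group
    have h2 := congrArg (fun A : Matrix.SpecialLinearGroup (Fin 2) F => (A : Matrix (Fin 2) (Fin 2) F)) h1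
    have h3 : ((Y⁻¹ : Matrix.SpecialLinearGroup (Fin 2) F) : Matrix (Fin 2) (Fin 2) F) = !![d0, -b0; -c0, a0] := by
      rw [Matrix.SpecialLinearGroup.coe_inv, hM, Matrix.adjugate_fin_two_of]
    have h4 : (((X * Y * X⁻¹ * Y) * Y⁻¹ * X : Matrix.SpecialLinearGroup (Fin 2) F) : Matrix (Fin 2) (Fin 2) F) =
        Matrix.scalar (Fin 2) s * !![d0, -b0; -c0, a0] * !![p, q; u, v] := by
      rw [Matrix.SpecialLinearGroup.coe_mul, Matrix.SpecialLinearGroup.coe_mul, h3, ← hsW, hP]
    have h5 : ((X * Y : Matrix.SpecialLinearGroup (Fin 2) F) : Matrix (Fin 2) (Fin 2) F) =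
        !![p, q; u, v] * !![a0, b0; c0, d0] := by
      rw [Matrix.SpecialLinearGroup.coe_mul, hP, hM]
    rw [← h5, ← h1, h4, mul_assoc]
    simp [Matrix.scalar_apply, Matrix.smul_eq_diagonal_mul]
  rw [Matrix.mul_fin_two, Matrix.mul_fin_two, Matrix.smul_of] at hmat
  have q1 := congrFun (congrFun hmat 0) 0
  have q2 := congrFun (congrFun hmat 0) 1
  have q3 := congrFun (congrFun hmat 1) 0
  have q4 := congrFun (congrFun hmat 1) 1
  simp at q1 q2 q3 q4
  have t1 : s * (a0 + d0) = a0 + d0 := by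
    linear_combination v * q1 - u * q2 - q * q3 + p * q4 - (a0 + d0) * (s - 1) * hdX
  have t2 : s * 2 = 2 := by linear_combination r * t1 + (1 - s) * htr
  have hs1 : s = 1 := by linear_combination (s - 1) * h30 - t2
  subst hs1
  have E1 : (d0 - a0) * p = b0 * u + q * c0 := by linear_combination q1
  have E2 : (d0 - a0) * (d0 - a0) = -(b0 * c0) := by
    have h1 : (a0 + d0) * (a0 + d0) = 4 := by
      linear_combination (-(a0 + d0) * (a0 + d0)) * hr' + (r * (a0 + d0) + 2) * htr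
    linear_combination h1 - 4 * hdY - b0 * c0 * h30
  have hb : b0 * (p + v) = 0 := by linear_combination -q2
  have hc : c0 * (p + v) = 0 := by linear_combination -q3
  by_cases hb0 : b0 = 0
  · by_cases hc0 : c0 = 0
    · -- `Y` is central
      subst hb0 hc0
      have hda : d0 - a0 = 0 := by
        have : (d0 - a0) * (d0 - a0) = 0 := by rw [E2]; ring
        exact mul_self_eq_zero.1 this
      have hda' : d0 = a0 := sub_eq_zero.1 hda
      subst hda'
      apply hy1
      rw [e1, Matrix.SpecialLinearGroup.mem_center_iff]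
      refine ⟨d0, ?_, ?_⟩
      · rw [Fintype.card_fin]; linear_combination hdY
      · rw [hM]
        ext i j
        fin_cases i <;> fin_cases j <;> simp [Matrix.scalar_apply]
    · have hv : v = -p := by
        have := (mul_eq_zero.1 hc).resolve_left hc0
        linear_combination this
      subst hv
      apply hns
      have hsq : (c0 * p - (d0 - a0) * u) * (c0 * p - (d0 - a0) * u) = -(c0 * c0) := by
        linear_combination (-2 * c0 * u) * E1 + u ^ 2 * E2 - c0 ^ 2 * hdX - (c0 ^ 2 * q * u + b0 * c0 * u ^ 2) * h30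
      refine ⟨(c0 * p - (d0 - a0) * u) / c0, ?_⟩
      rw [div_mul_div_comm, hsq, neg_div, div_self (mul_ne_zero hc0 hc0)]
  · have hv : v = -p := by
      have := (mul_eq_zero.1 hb).resolve_left hb0
      linear_combination this
    subst hv
    apply hns
    have hsq : (b0 * p - (d0 - a0) * q) * (b0 * p - (d0 - a0) * q) = -(b0 * b0) := by
      linear_combination (-2 * b0 * q) * E1 + q ^ 2 * E2 - b0 ^ 2 * hdX - (b0 ^ 2 * q * u + b0 * c0 * q ^ 2) * h30
    refine ⟨(b0 * p - (d0 - a0) * q) / b0, ?_⟩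
    rw [div_mul_div_comm, hsq, neg_div, div_self (mul_ne_zero hb0 hb0)]

end Cfsg.Agent.H15.RtP5
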