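import Cfsg.Agent.H15.RtFin
import Cfsg.Agent.H35.RtP5c1
import Cfsg.Agent.H35.RtP5c2
import Cfsg.Agent.H78.RtP5
import Cfsg.Agent.JY.RtSz
import Cfsg.Agent.JY.RtJ1
import Cfsg.Agent.H89.RtPSU3

/-!
# S2755: the pieces except the one on groups of Ree type
-/

set_option autoImplicit false

namespace Cfsg.Agent.H15.RtFin

open Cfsg.Agent Cfsg

universe u

theorem pcs_of (ree : ∀ {G : Type u} [Group G] [Finite G] (_ : Cfsg.IsReeType G),
    Cfsg.Involves (Equiv.Perm (Fin 3)) G) : Pcs.{u} where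
  s4ab := fun h => H35.RtP5c1.s4_free_of_ab h
  s4ab0 := fun h => H35.RtP5c1.s4_free_of_ab h
  s4ti0 := fun h => H35.RtP5c2.s4_free_of_ti h
  even_ti := fun n hn hF S T h => H78.RtP5.psl2_even_ti n hn hF S T h
  psu3_ti := fun n hn hF S T h => H89.RtPSU3.psu3_ti n hn hF S T h
  psl2_38_ab := fun q hF hq S => H78.RtP5.psl2_38_ab q hF hq S
  j1 := fun h => JY.Rt.j1 h
  sz := fun h => JY.Rt.sz h
  ree_ab := fun h => H78.RtP5.ree_ab h
  s3_psu3 := fun n hn hF => H89.RtPSU3.s3_psu3 n hn hF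
  ree := fun h => ree h

end Cfsg.Agent.H15.RtFin
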