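import Cfsg.Prelude.Def_LieExceptional
import Mathlib.GroupTheory.GroupAction.MultipleTransitivity

/-!
# Elementary facts on Zassenhaus groups (owner: helper15)
-/

set_option autoImplicit false

namespace Cfsg.Agent.H15

open Cfsg

variable {G Ω : Type*} [Group G] [MulAction G Ω]

theorem zass_trans (hZ : IsZassenhausGroup G Ω) {a b c d : Ω} (hab : a ≠ b) (hcd : c ≠ d) :
    ∃ g : G, g • a = c ∧ g • b = d :=
  (MulAction.is_two_pretransitive_iff (G := G) (α := Ω)).mp hZ.2.1 hab hcd

theorem zass_three (hZ : IsZassenhausGroup G Ω) {g : G} {a b c : Ω} (hab : a ≠ b) (hbc : b ≠ c)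
    (hac : a ≠ c) (ha : g • a = a) (hb : g • b = b) (hc : g • c = c) : g = 1 :=
  hZ.2.2.1 g a b c hab hbc hac ha hb hc

theorem zass_ext (hZ : IsZassenhausGroup G Ω) {g : G} (h : ∀ c : Ω, g • c = c) : g = 1 := by
  have := hZ.1
  apply FaithfulSMul.eq_of_smul_eq_smul (α := Ω)
  intro c
  rw [h c, one_smul]

/-- There is a third point. -/
theorem zass_exists_third (hZ : IsZassenhausGroup G Ω) (a b : Ω) : ∃ c : Ω, c ≠ a ∧ c ≠ b := by
  obtain ⟨g, hg, a', b', hab', ha', hb'⟩ := hZ.2.2.2.1
  have h3 : ∃ c : Ω, c ≠ a' ∧ c ≠ b' := by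
    by_contra hcon
    push Not at hcon
    apply hg
    apply zass_ext hZ
    intro c
    by_cases hc : c = a'
    · rw [hc, ha']
    · rw [hcon c hc, hb']
  obtain ⟨c', hca, hcb⟩ := h3
  by_contra hcon
  push Not at hcon
  -- all points are a or b
  have h1 : ∀ x, x = a ∨ x = b := fun x => by
    by_cases h : x = a
    · exact Or.inl h
    · exact Or.inr (hcon x h)
  rcases h1 a' with h | h <;> rcases h1 b' with h' | h' <;> rcases h1 c' with h'' | h'' <;>
    simp_all

/-- Some non-identity element fixes any two given distinct points. -/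
theorem zass_exists_fix (hZ : IsZassenhausGroup G Ω) {a b : Ω} (hab : a ≠ b) :
    ∃ x : G, x ≠ 1 ∧ x • a = a ∧ x • b = b := by
  obtain ⟨g, hg, a', b', hab', ha', hb'⟩ := hZ.2.2.2.1
  obtain ⟨t, hta, htb⟩ := zass_trans hZ hab' hab
  refine ⟨t * g * t⁻¹, ?_, ?_, ?_⟩
  · intro h
    apply hg
    have : g = t⁻¹ * (t * g * t⁻¹) * t := by group
    rw [this, h]; group
  · rw [← hta, mul_smul, mul_smul, inv_smul_smul, ha']
  · rw [← htb, mul_smul, mul_smul, inv_smul_smul, hb']

variable [Finite G] [Fintype Ω]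

theorem kernel_card_gt_one (hZ : IsZassenhausGroup G Ω) (a : Ω) (H : Subgroup G)
    (hHcard : Nat.card H + 1 = Fintype.card Ω) : ∃ u ∈ H, u ≠ (1 : G) := by
  obtain ⟨b, hb, -⟩ := zass_exists_third hZ a a
  obtain ⟨c, hca, hcb⟩ := zass_exists_third hZ a b
  have h3 : 3 ≤ Fintype.card Ω := by
    classical
    have : ({a, b, c} : Finset Ω).card = 3 := by
      rw [Finset.card_eq_three]
      exact ⟨a, b, c, hb.symm, hca.symm, hcb.symm, rfl⟩
    rw [← this]
    exact Finset.card_le_univ _
  have h4 : 1 < Nat.card H := by omega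
  by_contra hcon
  push Not at hcon
  have : H = ⊥ := (Subgroup.eq_bot_iff_forall H).mpr hcon
  rw [this] at h4
  simp at h4

/-- The kernel is transitive on the remaining points. -/
theorem kernel_trans (a : Ω) (H : Subgroup G) (hHa : H ≤ MulAction.stabilizer G a)
    (hHcard : Nat.card H + 1 = Fintype.card Ω)
    (hHfix : ∀ u ∈ H, u ≠ 1 → ∀ c : Ω, u • c = c → c = a) {b c : Ω} (hb : b ≠ a) (hc : c ≠ a) :
    ∃ u ∈ H, u • b = c := by
  classical
  have hnat : Nat.card {x : Ω // x ≠ a} = Nat.card H := by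
    have h1 : Fintype.card {x : Ω // x ≠ a} = Fintype.card Ω - 1 := by
      rw [Fintype.card_subtype_compl, Fintype.card_subtype_eq]
    rw [Nat.card_eq_fintype_card, h1]
    omega
  let f : H → {x : Ω // x ≠ a} := fun u => ⟨(u : G) • b, by
    intro h
    have h1 : (u : G) • a = a := hHa u.2
    rw [← h1] at h
    exact hb (smul_left_cancel _ h)⟩
  have hinj : Function.Injective f := by
    intro u v huv
    have h1 : (u : G) • b = (v : G) • b := congrArg Subtype.val huv
    by_contra hne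
    have h2 : (v : G)⁻¹ * u ≠ 1 := by
      intro h
      apply hne
      apply Subtype.ext
      exact (inv_mul_eq_one.mp h).symm
    apply hb
    refine hHfix _ (H.mul_mem (H.inv_mem v.2) u.2) h2 b ?_
    rw [mul_smul, h1, inv_smul_smul]
  have hbij : Function.Bijective f :=
    (Nat.bijective_iff_injective_and_card f).mpr ⟨hinj, hnat.symm⟩
  obtain ⟨u, hu⟩ := hbij.2 ⟨c, hc⟩
  exact ⟨u, u.2, congrArg Subtype.val hu⟩

/-- Every element of the point stabilizer fixing no further point lies in the kernel. -/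
theorem mem_kernel_of_fix (hZ : IsZassenhausGroup G Ω) (a : Ω) (H : Subgroup G)
    (hHa : H ≤ MulAction.stabilizer G a)
    (hHcard : Nat.card H + 1 = Fintype.card Ω)
    (hHfix : ∀ u ∈ H, u ≠ 1 → ∀ c : Ω, u • c = c → c = a) (v : G)
    (hv : v • a = a) (hvfix : ∀ c : Ω, v • c = c → c = a) : v ∈ H := by
  classical
  by_contra hvH
  have hnat : Nat.card {x : Ω // x ≠ a} = Nat.card H := by
    have h1 : Fintype.card {x : Ω // x ≠ a} = Fintype.card Ω - 1 := by
      rw [Fintype.card_subtype_compl, Fintype.card_subtype_eq]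
    rw [Nat.card_eq_fintype_card, h1]
    omega
  have hex : ∀ b : {x : Ω // x ≠ a}, ∃ w : H, (w : G) • b.1 = v • b.1 := by
    intro b
    have hvb : v • b.1 ≠ a := by
      intro h
      exact b.2 (smul_left_cancel v (h.trans hv.symm))
    obtain ⟨u, hu, hub⟩ := kernel_trans a H hHa hHcard hHfix b.2 hvb
    exact ⟨⟨u, hu⟩, hub⟩
  choose φ hφ using hex
  have hinj : Function.Injective φ := by
    intro b b' hbb
    by_contra hne
    have h1 : ((φ b : G)⁻¹ * v) • b.1 = b.1 := by
      rw [mul_smul, ← hφ b, inv_smul_smul]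
    have h2 : ((φ b : G)⁻¹ * v) • b'.1 = b'.1 := by
      rw [mul_smul, ← hφ b', hbb, inv_smul_smul]
    have h3 : ((φ b : G)⁻¹ * v) • a = a := by
      rw [mul_smul, hv, inv_smul_eq_iff]
      exact (hHa (φ b).2).symm
    have h4 := zass_three hZ b.2 b'.2.symm (fun h => hne (Subtype.ext h)) h1 h3 h2
    apply hvH
    have : v = φ b := (inv_mul_eq_one.mp h4).symm
    rw [this]
    exact (φ b).2
  have hbij : Function.Bijective φ :=
    (Nat.bijective_iff_injective_and_card φ).mpr ⟨hinj, hnat⟩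
  obtain ⟨b, hb⟩ := hbij.2 1
  have := hφ b
  rw [hb] at this
  apply b.2
  apply hvfix
  rw [← this]
  simp

/-- A non-identity element of a two-point stabilizer fixes exactly these two points. -/
theorem zass_fix_pair {G Ω : Type*} [Group G] [MulAction G Ω] (hZ : IsZassenhausGroup G Ω)
    {a b : Ω} (hab : a ≠ b) {x : G} (hx1 : x ≠ 1)
    (ha : x • a = a) (hb : x • b = b) {c : Ω} (hc : x • c = c) : c = a ∨ c = b := by
  by_contra hcon
  push Not at hcon
  exact hx1 (zass_three hZ hab hcon.2.symm hcon.1.symm ha hb hc)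

theorem zass_conj_pair {G Ω : Type*} [Group G] [MulAction G Ω] (hZ : IsZassenhausGroup G Ω)
    {a b : Ω} (hab : a ≠ b) {g x : G} (hx1 : x ≠ 1)
    (hx : x ∈ MulAction.stabilizer G a ⊓ MulAction.stabilizer G b)
    (hgx : g * x * g⁻¹ ∈ MulAction.stabilizer G a ⊓ MulAction.stabilizer G b) :
    (g • a = a ∧ g • b = b) ∨ (g • a = b ∧ g • b = a) := by
  have hxa : x • a = a := hx.1
  have hxb : x • b = b := hx.2
  have hne : g * x * g⁻¹ ≠ 1 := by
    intro h
    apply hx1
    have : x = g⁻¹ * (g * x * g⁻¹) * g := by group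
    rw [this, h]; group
  have h1 : (g * x * g⁻¹) • (g • a) = g • a := by
    rw [mul_smul, mul_smul, inv_smul_smul, hxa]
  have h2 : (g * x * g⁻¹) • (g • b) = g • b := by
    rw [mul_smul, mul_smul, inv_smul_smul, hxb]
  have hga := zass_fix_pair hZ hab hne hgx.1 hgx.2 h1
  have hgb := zass_fix_pair hZ hab hne hgx.1 hgx.2 h2
  rcases hga with h | h <;> rcases hgb with h' | h'
  · exact absurd (smul_left_cancel g (h.trans h'.symm)) hab
  · exact Or.inl ⟨h, h'⟩
  · exact Or.inr ⟨h, h'⟩
  · exact absurd (smul_left_cancel g (h.trans h'.symm)) hab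

theorem zass_pair_normalizes {G Ω : Type*} [Group G] [MulAction G Ω] {a b : Ω} {g : G}
    (h : (g • a = a ∧ g • b = b) ∨ (g • a = b ∧ g • b = a)) :
    g ∈ Subgroup.normalizer
      ((MulAction.stabilizer G a ⊓ MulAction.stabilizer G b : Subgroup G) : Set G) := by
  have key : ∀ g : G, ((g • a = a ∧ g • b = b) ∨ (g • a = b ∧ g • b = a)) →
      ∀ x ∈ (MulAction.stabilizer G a ⊓ MulAction.stabilizer G b : Subgroup G),
      g * x * g⁻¹ ∈ (MulAction.stabilizer G a ⊓ MulAction.stabilizer G b : Subgroup G) := by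
    intro g h x hx
    have hxa : x • a = a := hx.1
    have hxb : x • b = b := hx.2
    rcases h with ⟨h, h'⟩ | ⟨h, h'⟩
    · have e1 : g⁻¹ • a = a := by rw [inv_smul_eq_iff, h]
      have e2 : g⁻¹ • b = b := by rw [inv_smul_eq_iff, h']
      constructor
      · change (g * x * g⁻¹) • a = a
        rw [mul_smul, mul_smul, e1, hxa, h]
      · change (g * x * g⁻¹) • b = b
        rw [mul_smul, mul_smul, e2, hxb, h']
    · have e1 : g⁻¹ • b = a := by rw [inv_smul_eq_iff, h]
      have e2 : g⁻¹ • a = b := by rw [inv_smul_eq_iff, h']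
      constructor
      · change (g * x * g⁻¹) • a = a
        rw [mul_smul, mul_smul, e2, hxb, h']
      · change (g * x * g⁻¹) • b = b
        rw [mul_smul, mul_smul, e1, hxa, h]
  have hinv : (g⁻¹ • a = a ∧ g⁻¹ • b = b) ∨ (g⁻¹ • a = b ∧ g⁻¹ • b = a) := by
    rcases h with ⟨h, h'⟩ | ⟨h, h'⟩
    · left
      exact ⟨by rw [inv_smul_eq_iff, h], by rw [inv_smul_eq_iff, h']⟩
    · right
      exact ⟨by rw [inv_smul_eq_iff, h'], by rw [inv_smul_eq_iff, h]⟩
  rw [Subgroup.mem_normalizer_iff]
  intro x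
  constructor
  · exact key g h x
  · intro hx
    have := key g⁻¹ hinv _ hx
    have e : g⁻¹ * (g * x * g⁻¹) * g⁻¹⁻¹ = x := by group
    rwa [e] at this

theorem zass_two_point {G Ω : Type*} [Group G] [MulAction G Ω] (hZ : IsZassenhausGroup G Ω)
    {a b : Ω} (hab : a ≠ b) :
    (∀ g : G, g ∉ Subgroup.normalizer ((MulAction.stabilizer G a ⊓ MulAction.stabilizer G b :
      Subgroup G) : Set G) → ∀ x ∈ (MulAction.stabilizer G a ⊓ MulAction.stabilizer G b :
      Subgroup G), g * x * g⁻¹ ∈ (MulAction.stabilizer G a ⊓ MulAction.stabilizer G b :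
      Subgroup G) → x = 1) ∧
    ((MulAction.stabilizer G a ⊓ MulAction.stabilizer G b : Subgroup G).subgroupOf
      (Subgroup.normalizer ((MulAction.stabilizer G a ⊓ MulAction.stabilizer G b :
      Subgroup G) : Set G))).index = 2 := by
  constructor
  · intro g hg x hx hgx
    by_contra hx1
    exact hg (zass_pair_normalizes (zass_conj_pair hZ hab hx1 hx hgx))
  · obtain ⟨t, hta, htb⟩ := zass_trans hZ hab hab.symm
    have htN := zass_pair_normalizes (a := a) (b := b) (g := t) (Or.inr ⟨hta, htb⟩)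
    rw [Subgroup.index_eq_two_iff]
    refine ⟨⟨t, htN⟩, ?_⟩
    rintro ⟨g, hg⟩
    obtain ⟨x, hx1, hxa, hxb⟩ := zass_exists_fix hZ hab
    have hx : x ∈ (MulAction.stabilizer G a ⊓ MulAction.stabilizer G b : Subgroup G) :=
      ⟨hxa, hxb⟩
    have hgx := (Subgroup.mem_normalizer_iff.mp hg x).mp hx
    have hcases := zass_conj_pair hZ hab hx1 hx hgx
    rw [Subgroup.mem_subgroupOf, Subgroup.mem_subgroupOf]
    rcases hcases with ⟨h, h'⟩ | ⟨h, h'⟩
    · right
      refine ⟨⟨h, h'⟩, ?_⟩
      rintro ⟨h1, -⟩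
      change (g * t) • a = a at h1
      rw [mul_smul, hta, h'] at h1
      exact hab h1.symm
    · left
      refine ⟨⟨?_, ?_⟩, ?_⟩
      · change (g * t) • a = a
        rw [mul_smul, hta, h']
      · change (g * t) • b = b
        rw [mul_smul, htb, h]
      · rintro ⟨h1, -⟩
        change g • a = a at h1
        exact hab (h1.symm.trans h)

theorem zass_point_kernel (hZ : IsZassenhausGroup G Ω) (a : Ω) (H : Subgroup G)
    (hHa : H ≤ MulAction.stabilizer G a) (hHcard : Nat.card H + 1 = Fintype.card Ω)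
    (hHfix : ∀ u ∈ H, u ≠ 1 → ∀ c : Ω, u • c = c → c = a) :
    (∀ g : G, g ∉ MulAction.stabilizer G a → ∀ u ∈ H, g * u * g⁻¹ ∈ H → u = 1) ∧
      Subgroup.normalizer (H : Set G) = MulAction.stabilizer G a := by
  have h1 : ∀ g : G, g ∉ MulAction.stabilizer G a → ∀ u ∈ H, g * u * g⁻¹ ∈ H → u = 1 := by
    intro g hg u hu hgu
    by_contra hu1
    apply hg
    have hne : g * u * g⁻¹ ≠ 1 := by
      intro h
      apply hu1
      have : u = g⁻¹ * (g * u * g⁻¹) * g := by group
      rw [this, h]; group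
    refine hHfix _ hgu hne (g • a) ?_
    rw [mul_smul, mul_smul, inv_smul_smul]
    congr 1
    exact hHa hu
  refine ⟨h1, le_antisymm ?_ ?_⟩
  · intro g hg
    by_contra hga
    obtain ⟨u, hu, hu1⟩ := kernel_card_gt_one hZ a H hHcard
    exact hu1 (h1 g hga u hu ((Subgroup.mem_normalizer_iff.mp hg u).mp hu))
  · intro g hg
    have hga : g • a = a := hg
    have key : ∀ g : G, g • a = a → ∀ u ∈ H, g * u * g⁻¹ ∈ H := by
      intro g hga u hu
      have hga' : g⁻¹ • a = a := by rw [inv_smul_eq_iff, hga]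
      by_cases hu1 : u = 1
      · rw [hu1]; simp [H.one_mem]
      · have hua : u • a = a := hHa hu
        apply mem_kernel_of_fix hZ a H hHa hHcard hHfix
        · rw [mul_smul, mul_smul, hga', hua, hga]
        · intro c hc
          rw [mul_smul, mul_smul, ← eq_inv_smul_iff] at hc
          have := hHfix u hu hu1 (g⁻¹ • c) hc
          rw [inv_smul_eq_iff, hga] at this
          exact this
    rw [Subgroup.mem_normalizer_iff]
    intro u
    constructor
    · exact key g hga u
    · intro h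
      have hga' : g⁻¹ • a = a := by rw [inv_smul_eq_iff, hga]
      have := key g⁻¹ hga' _ h
      have e : g⁻¹ * (g * u * g⁻¹) * g⁻¹⁻¹ = u := by group
      rwa [e] at this

end Cfsg.Agent.H15
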